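import Cfsg.Agent.H273.S69.Main

/-!
# S3469 (helper273 for helper214): `PΩ₈⁻(q)` has no elements of order `7 r`

`no_seven` : `r` a prime dividing `q ^ 2 + ε q + 1`, `q = ε` modulo 4.
-/

set_option autoImplicit false
set_option linter.unusedSectionVars false
set_option linter.unusedVariables false

universe u v

namespace Cfsg.Agent.H273.S69

open Module QuadraticMap Matrix Cfsg.Agent.LieClassical.OrthCore Cfsg.Agent.H214.S69
open Cfsg.Agent.LieClassical.OrthFinite (isometryHom isometryHom_apply isometryHom_injective)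

/-- The isometry group of the minus form has no elements of order divisible by `7 r`. -/
theorem Space.no_seven {F : Type*} [Field F] [Fintype F] [CharP F 7] {ι : Type} [Fintype ι] [DecidableEq ι]
    {Q : QuadraticForm F (ι → F)} {n : ℕ} {ε : ℤ} (S : Space Q) {r : ℕ} (hr : r.Prime) (hro : Odd r)
    (hrq : ¬ r ∣ Fintype.card F) (h3 : ∀ d, Fintype.card F ^ d ≡ 1 [MOD r] → 3 ∣ d)
    (x : Cfsg.isometryGroup F ⇑Q) : ¬ 7 * r ∣ orderOf x := by
  intro hx
  have hfin : Finite (Cfsg.isometryGroup F ⇑Q) := Subtype.finite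
  obtain ⟨k, hk⟩ := hx
  set m := orderOf x with hm
  have hm0 : 0 < m := orderOf_pos x
  have hk0 : 0 < k := by
    rcases Nat.eq_zero_or_pos k with h0 | h0
    · rw [h0, mul_zero] at hk; omega
    · exact h0
  have hr0 := hr.pos
  have hcast : (r : F) ≠ 0 := by
    intro h0
    obtain ⟨p, hp⟩ := CharP.exists F
    obtain ⟨k, hp', hk⟩ := FiniteField.card F p
    have h1 := (CharP.cast_eq_zero_iff F p r).1 h0
    have h4 : p = r := (Nat.prime_dvd_prime_iff_eq hp' hr).1 h1
    apply hrq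
    rw [hk, h4]
    exact dvd_pow_self r k.ne_zero
  have hs : orderOf (x ^ (7 * k)) = r := by
    have h1 : m = 7 * k * r := by rw [hk]; ring
    rw [orderOf_pow_of_dvd (by positivity) (by rw [← hm, h1]; exact Dvd.intro _ rfl), ← hm, h1]
    exact Nat.mul_div_cancel_left _ (by positivity)
  have hu : orderOf (x ^ (r * k)) = 7 := by
    have h1 : m = r * k * 7 := by rw [hk]; ring
    rw [orderOf_pow_of_dvd (by positivity) (by rw [← hm, h1]; exact Dvd.intro _ rfl), ← hm, h1]
    exact Nat.mul_div_cancel_left _ (by positivity)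
  have hD : SData Q (isometryHom Q (x ^ (7 * k))) r := by
    refine ⟨S.h2, nondeg_of S.nd, ?_, hom_mem_O _, hr, hro, hcast, ?_, ?_, ?_⟩
    · rw [Module.finrank_fintype_fun_eq_card]
      exact S.dim
    · rw [← map_pow, ← hs, pow_orderOf_eq_one, map_one]
    · intro h1
      have h4 := isometryHom_injective Q (h1.trans (map_one _).symm)
      rw [h4, orderOf_one] at hs
      exact hr.one_lt.ne hs
    · intro d hd
      rw [Nat.card_eq_fintype_card] at hd
      exact h3 d hd
  have : Fact (Nat.Prime 7) := ⟨by norm_num⟩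
  have h1 : isometryHom Q (x ^ (r * k)) = 1 := by
    apply hD.eq_one_of_commute (p := 7) (k := 1) (hom_mem_O _)
    · rw [← map_pow, pow_one, ← hu, pow_orderOf_eq_one, map_one]
    · rw [← map_mul, ← map_mul]
      congr 1
      rw [← pow_add, ← pow_add, add_comm]
  have h3 := isometryHom_injective Q (h1.trans (map_one _).symm)
  rw [h3, orderOf_one] at hu
  exact absurd hu (by norm_num)

/-- **`no_seven`** -/
theorem no_seven {F : Type} [Field F] [Fintype F] [CharP F 7] {a b : F} (hab : Aniso a b) :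
    ∃ r : ℕ, r.Prime ∧ r ≠ 2 ∧ (r ∣ Fintype.card F ^ 3 - 1 ∨ r ∣ Fintype.card F ^ 3 + 1) ∧
      ∀ x : Cfsg.POmega F (Cfsg.quadFormMinus 3 F a b), ¬ 7 * r ∣ orderOf x := by
  classical
  set q := Fintype.card F with hq
  have h7p : Nat.Prime 7 := by norm_num
  obtain ⟨f, hf, hqf⟩ : ∃ f : ℕ, 0 < f ∧ q = 7 ^ f := by
    obtain ⟨f, -, hf⟩ := FiniteField.card F 7
    exact ⟨f, f.pos, hf⟩
  have hq7 : 7 ∣ q := by
    rw [hqf]
    exact dvd_pow_self 7 (by omega)
  have ho : Odd q := by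
    rw [hqf]
    exact Odd.pow (by decide)
  have hq0 : 0 < q := Fintype.card_pos
  set Q := Q8' F a b with hQ
  have S : Space Q := space ho hab
  have hneg := neg_not_mem ho hab
  obtain ⟨ε, n, hN, hn⟩ : ∃ (ε : ℤ) (n : ℕ), NData q n ε ∧ (n = q ^ 3 - 1 ∨ n = q ^ 3 + 1) := by
    have h4 : q % 4 = 1 ∨ q % 4 = 3 := by
      obtain ⟨k, hk⟩ := ho
      omega
    have hq3 : 1 ≤ q ^ 3 := Nat.one_le_pow _ _ hq0
    rcases h4 with h4 | h4
    · exact ⟨1, q ^ 3 - 1, ⟨Or.inl rfl, hq7, hq0, by omega, by push_cast [hq3]; ring⟩, Or.inl rfl⟩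
    · exact ⟨-1, q ^ 3 + 1, ⟨Or.inr rfl, hq7, hq0, by omega, by push_cast; ring⟩, Or.inr rfl⟩
  obtain ⟨r, hr, hro, hrn, hrq, hrm, h3⟩ := hN.exists_prime
  refine ⟨r, hr, ?_, ?_, ?_⟩
  · rintro rfl
    exact absurd hro (by decide)
  · rcases hn with h | h
    · left; rw [← h]; exact hrn
    · right; rw [← h]; exact hrn
  have hcen : Subgroup.center (Cfsg.Omega F ⇑Q) = ⊥ := by
    apply LieClassical.OrthCenter.center_omega_eq_bot S.nd (by rw [S.dim]; norm_num)
    · refine ⟨Pi.single (Sum.inl (Sum.inl 0)) 1, ?_, ?_⟩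
      · intro h
        have := congrFun h (Sum.inl (Sum.inl 0))
        rw [Pi.single_eq_same] at this
        exact one_ne_zero this
      · rw [hQ, coe_Q8', Cfsg.quadFormMinus]
        simp [Pi.single_apply]
    · intro g hg h
      exact hneg ⟨g, hg, h⟩
  let Ψ : Cfsg.POmega F (Cfsg.quadFormMinus 3 F a b) ≃* Cfsg.Omega F ⇑Q :=
    (QuotientGroup.quotientMulEquivOfEq hcen).trans QuotientGroup.quotientBot
  intro x hx
  refine S.no_seven (n := n) (ε := ε) hr hro hrq h3 ((Ψ x : Cfsg.Omega F ⇑Q) : Cfsg.isometryGroup F ⇑Q) ?_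
  rw [Subgroup.orderOf_coe, MulEquiv.orderOf_eq]
  exact hx

end Cfsg.Agent.H273.S69
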